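import Cfsg.Agent.H759.ResModelB
import Cfsg.Agent.H771.ModelUnique

/-!
# Terminating residual series and `p`-solvable models (helper759)
-/

set_option autoImplicit false

universe u v

namespace Cfsg.Agent.H759

open Cfsg Cfsg.FusionSystem

section groups

variable {p : ℕ} {G : Type*} [Group G]

theorem not_dvd_index_sylow [Finite G] [Fact p.Prime] (R : Sylow p G) : ¬ p ∣ (R : Subgroup G).index := by
  apply Sylow.not_dvd_index'
  exact Subgroup.FiniteIndex.index_ne_zero

theorem isPSolvable_of_coprime [Finite G] [Fact p.Prime] (h : (Nat.card G).Coprime p) : IsPSolvable p G := by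
  refine Lib.PSolvable.IsPSolvable_of_quotient p (⊤ : Subgroup G) (Or.inr ?_) ?_
  · rw [Subgroup.card_top]; exact h
  · have : Subsingleton (G ⧸ (⊤ : Subgroup G)) := QuotientGroup.subsingleton_quotient_top
    have : Group.IsSolvable (G ⧸ (⊤ : Subgroup G)) := inferInstance
    exact Lib.PSolvable.IsPSolvable_of_solvable p

theorem isPSolvable_of_isPGroup [Finite G] [Fact p.Prime] (h : IsPGroup p G) : IsPSolvable p G := by
  have : Group.IsNilpotent G := h.isNilpotent
  exact Lib.PSolvable.IsPSolvable_of_solvable p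

theorem sylow_le_pEl [Finite G] [Fact p.Prime] (R : Sylow p G) : (R : Subgroup G) ≤ pEl p G :=
  isPGroup_le_pEl R.isPGroup'

theorem card_quotient_pEl_coprime [Finite G] [hp : Fact p.Prime] : (Nat.card (G ⧸ pEl p G)).Coprime p := by
  obtain ⟨R⟩ : Nonempty (Sylow p G) := inferInstance
  have h1 : (pEl p G).index ∣ (R : Subgroup G).index := Subgroup.index_dvd_of_le (sylow_le_pEl R)
  have h2 : ¬ p ∣ (R : Subgroup G).index := not_dvd_index_sylow R
  have h3 : Nat.Coprime (pEl p G).index p :=
    ((Nat.Prime.coprime_iff_not_dvd hp.out).2 fun h => h2 (h.trans h1)).symm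
  exact h3

theorem pEl_pEl : pEl p (pEl p G) = ⊤ := by
  have h1 : ∀ g (hg : g ∈ pEl p G), (⟨g, hg⟩ : pEl p G) ∈ pEl p (pEl p G) := by
    intro g hg
    refine Subgroup.closure_induction (p := fun x hx => (⟨x, hx⟩ : pEl p G) ∈ pEl p (pEl p G)) ?_ ?_ ?_ ?_ hg
    · rintro x ⟨k, hk⟩
      exact mem_pEl (k := k) ((Subgroup.orderOf_mk x (mem_pEl hk)).trans hk)
    · exact one_mem _
    · intro x y hx hy h1 h2
      exact mul_mem h1 h2
    · intro x hx h1
      exact inv_mem h1
  rw [eq_top_iff]
  rintro ⟨g, hg⟩ -
  exact h1 g hg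

/-- A nontrivial `p`-solvable group has a proper normal subgroup of index a power of `p` or prime to `p`. -/
theorem exists_normal_of_isPSolvable [Nontrivial G] (h : IsPSolvable p G) :
    ∃ N : Subgroup G, N.Normal ∧ N ≠ ⊤ ∧ ((∃ m : ℕ, N.index = p ^ m) ∨ N.index.Coprime p) := by
  obtain ⟨n, H, h0, hlast, hmono, hnormal, hfac⟩ := h
  by_contra hcon
  push Not at hcon
  have key : ∀ i : Fin (n + 1), H i ≠ ⊤ := by
    intro i
    induction i using Fin.induction with
    | zero => rw [h0]; exact bot_ne_top
    | succ i ih =>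
      intro htop
      obtain ⟨h1, h2⟩ := hcon (H i.castSucc) (hnormal _) ih
      rcases hfac i with ⟨m, hm⟩ | hc
      · rw [htop, Subgroup.relIndex_top_right] at hm
        exact h1 m hm
      · rw [htop, Subgroup.relIndex_top_right] at hc
        exact h2 hc
  exact key _ hlast

theorem pResidual_ne_top [Finite G] [hp : Fact p.Prime] [Nontrivial G] (h : IsPSolvable p G)
    (hG : pEl p G = ⊤) : pResidual p G ≠ ⊤ := by
  obtain ⟨N, hN, hNt, hi⟩ := exists_normal_of_isPSolvable h
  intro htop
  apply hNt
  rcases hi with ⟨m, hm⟩ | hc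
  · have h1 : IsPGroup p (G ⧸ N) := IsPGroup.of_card (n := m) hm
    have h2 := (TwoFusion.PResidual.isPGroup_quotient_iff_pResidual_le p N).1 h1
    rw [htop] at h2
    exact top_le_iff.1 h2
  · rw [eq_top_iff, ← hG]
    refine (Subgroup.closure_le _).2 ?_
    rintro g ⟨k, hk⟩
    rw [SetLike.mem_coe, ← QuotientGroup.eq_one_iff, ← orderOf_eq_one_iff]
    have h1 : orderOf (g : G ⧸ N) ∣ orderOf g := orderOf_map_dvd (QuotientGroup.mk' N) g
    have h2 : orderOf (g : G ⧸ N) ∣ N.index := orderOf_dvd_natCard _
    rw [hk] at h1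
    exact Nat.Coprime.eq_one_of_dvd ((Nat.Coprime.coprime_dvd_left h2 hc).pow_right k) h1

end groups

/-- Models of a system whose residual series terminates are `p`-solvable. -/
theorem isPSolvable_of_terminating {Ω : Type u} [Group Ω] {S : Subgroup Ω} {F : FusionSystem S} {p : ℕ}
    (h : F.HasTerminatingResidualSeries p) : Fact p.Prime → Finite S → IsPGroup p S →
    ∀ (G : Type v) [Group G] (ι : S →* G), F.IsModel p G ι → IsPSolvable p G := by
  induction h with
  | @trivial S F p hbot =>
    intro hp _ _ G _ ι hG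
    obtain ⟨hfin, hreal, ⟨R, hR⟩, hC⟩ := hG
    subst hbot
    have hR1 : (R : Subgroup G) = ⊥ := by
      rw [hR, eq_bot_iff]
      rintro _ ⟨x, rfl⟩
      have : x = 1 := Subsingleton.elim _ _
      rw [this, map_one]; exact one_mem _
    apply isPSolvable_of_coprime
    have h1 := not_dvd_index_sylow R
    rw [hR1, Subgroup.index_bot] at h1
    exact ((Nat.Prime.coprime_iff_not_dvd hp.out).2 h1).symm
  | @step S F E p D hE hD _ ih =>
    intro hp hfin hS G _ ι hG
    have hfG : Finite G := hG.1
    have hEM := isModel_pPrimeResidual hG hE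
    have hTS : E.hyperfocalSubgroup p ≤ S := H747.hyperfocal_le_base E p
    have hDM := isModel_pResidual hS hEM hD
    have h1 := ih hp (H802.finite_of_le hTS) (hS.to_le hTS) _ _ hDM
    have hn : (pResidual p (pEl p G)).Normal := TwoFusion.PResidual.pResidual_normal p
    have h2 : IsPSolvable p (pEl p G) := by
      refine Lib.PSolvable.IsPSolvable_of_extension p (pResidual p (pEl p G)) h1 ?_
      exact isPSolvable_of_isPGroup (TwoFusion.PResidual.isPGroup_quotient_pResidual p)
    refine Lib.PSolvable.IsPSolvable_of_extension p (pEl p G) h2 ?_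
    exact isPSolvable_of_coprime card_quotient_pEl_coprime

/-- A system with a `p`-solvable model has a terminating residual series. -/
theorem terminating_of_isPSolvable {Ω : Type u} [Group Ω] {p : ℕ} [hp : Fact p.Prime] (n : ℕ) :
    ∀ {S : Subgroup Ω} [Finite S] (_ : IsPGroup p S) (_ : Nat.card S = n) (F : FusionSystem S)
      (G : Type v) [Group G] (ι : S →* G), F.IsModel p G ι → IsPSolvable p G →
      F.HasTerminatingResidualSeries p := by
  induction n using Nat.strong_induction_on with
  | _ n ih =>
    intro S _ hS hn F G _ ι hG hsol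
    by_cases hbot : S = ⊥
    · exact .trivial F p hbot
    have hfG : Finite G := hG.1
    have hi := resMap_injective hG.2.1.1 le_rfl (pEl p G) (mem_pEl_of_model hG)
    have h1 := H781.pullback_isRealizedBy _ hi
    have hE := isPPrimeResidual_of_resMap hG h1
    have hEM := isModel_pPrimeResidual hG hE
    set E := H781.pullback _ hi with hEdef
    have hi2 := resMap_injective hEM.2.1.1 (H747.hyperfocal_le_base E p) (pResidual p (pEl p G))
      (mem_pResidual_of_model hEM)
    have h2 := H781.pullback_isRealizedBy _ hi2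
    have hD := isPResidual_of_resMap hEM h2
    have hDM := isModel_pResidual hS hEM hD
    refine .step F E p _ hE hD ?_
    have hTS : E.hyperfocalSubgroup p ≤ S := H747.hyperfocal_le_base E p
    have hfT : Finite (E.hyperfocalSubgroup p) := H802.finite_of_le hTS
    have hsolK : IsPSolvable p (pEl p G) :=
      Lib.PSolvable.IsPSolvable_of_injective p hsol (pEl p G).subtype (pEl p G).subtype_injective
    have hsolM : IsPSolvable p (pResidual p (pEl p G)) :=
      Lib.PSolvable.IsPSolvable_of_injective p hsolK (pResidual p (pEl p G)).subtype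
        (pResidual p (pEl p G)).subtype_injective
    refine ih _ ?_ (hS.to_le hTS) rfl _ _ _ hDM hsolM
    rw [← hn]
    refine lt_of_le_of_ne (Subgroup.card_le_of_le hTS) fun heq => ?_
    have hTeq : E.hyperfocalSubgroup p = S := Subgroup.eq_of_le_of_card_ge hTS heq.ge
    -- the Sylow subgroup lies in `O^p(K)`, `K = O^{p'}(G)`
    obtain ⟨-, hreal, ⟨R, hR⟩, -⟩ := id hEM
    have hRle : (R : Subgroup (pEl p G)) ≤ pResidual p (pEl p G) := by
      rw [hR]
      rintro _ ⟨x, rfl⟩
      have hx : (x : Ω) ∈ E.hyperfocalSubgroup p := by rw [hTeq]; exact x.2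
      exact ((mem_hyperfocal_iff hreal hR x).1 hx).2
    have hne : Nontrivial (pEl p G) := by
      obtain ⟨s, hs⟩ := Subgroup.ne_bot_iff_exists_ne_one.1 hbot
      exact ⟨⟨resMap ι le_rfl (pEl p G) (mem_pEl_of_model hG) s, 1, fun h => hs (hi (by rw [h, map_one]))⟩⟩
    have hnK : (pResidual p (pEl p G)).Normal := TwoFusion.PResidual.pResidual_normal p
    refine pResidual_ne_top hsolK pEl_pEl ?_
    -- the index of `O^p(K)` is a power of `p` and prime to `p`
    have h3 : (pResidual p (pEl p G)).index ∣ (R : Subgroup (pEl p G)).index := Subgroup.index_dvd_of_le hRle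
    have h4 : ¬ p ∣ (R : Subgroup (pEl p G)).index := not_dvd_index_sylow R
    obtain ⟨m, hm⟩ := IsPGroup.iff_card.1 (TwoFusion.PResidual.isPGroup_quotient_pResidual (G := pEl p G) p)
    have h5 : (pResidual p (pEl p G)).index = p ^ m := hm
    have h6 : m = 0 := by
      by_contra hm0
      apply h4
      refine dvd_trans ?_ h3
      rw [h5]
      exact dvd_pow_self p hm0
    rw [h6, pow_zero] at h5
    exact Subgroup.index_eq_one.1 h5

end Cfsg.Agent.H759
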